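import Mathlib
import Cfsg.Agent.Lib.Helper28.BigSub
import Cfsg.Agent.Lib.Helper11.AxB

set_option autoImplicit false

namespace Cfsg.Agent.Lib.Helper52.BU

open Subgroup
open Cfsg.Agent.Lib.Helper28

variable {G : Type*} [Group G] [Finite G]

/-- `C_{O_r(H)}(M ∩ O_r(H)) ≤ M` when `C_{F(H)}(M) ≤ M ≤ F(H)`. -/
theorem opIn_inf_centralizer_le_of_fit {H M : Subgroup G} (hM : M ≤ fitIn H)
    (hCM : fitIn H ⊓ centralizer (M : Set G) ≤ M) (r : ℕ) [Fact r.Prime] :
    opIn r H ⊓ centralizer ((M ⊓ opIn r H : Subgroup G) : Set G) ≤ M := by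
  rintro c ⟨hc1, hc2⟩
  have hc1 : c ∈ opIn r H := hc1
  have hc2 : c ∈ centralizer ((M ⊓ opIn r H : Subgroup G) : Set G) := hc2
  refine hCM ⟨opIn_le_fitIn r H hc1, ?_⟩
  show c ∈ centralizer (M : Set G)
  rw [mem_centralizer_iff]
  intro s hs
  obtain ⟨a, ha, b, hb, rfl⟩ := exists_mul_of_mem_sup
    ((opIn_le r H).trans (le_normalizer_fitPrimeIn r H)) (fitIn_le_sup r H (hM hs))
  have hab : Commute a b := commute_of_commutator_eq_bot (opIn_commutator_fitPrimeIn r H) ha hb
  have haS : a ∈ M := mem_of_mul_mem_of_coprime hs hab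
    (orderOf_coprime_of_isPGroup (opIn_isPGroup r H) ha
      (orderOf_coprime_of_card_coprime (fitPrimeIn_coprime r H) hb))
  have h2 : Commute c b := commute_of_commutator_eq_bot (opIn_commutator_fitPrimeIn r H) hc1 hb
  have h3 : Commute a c := mem_centralizer_iff.mp hc2 a ⟨haS, ha⟩
  exact (h3.mul_left h2.symm).eq

/-- [CEN] a subgroup `Y ≤ H` of order coprime to `|F(H)|` centralizing `M` centralizes `F(H)`. -/
theorem cen {H M Y : Subgroup G} (hM : M ≤ fitIn H)
    (hCM : fitIn H ⊓ centralizer (M : Set G) ≤ M) (hYH : Y ≤ H)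
    (hY : (Nat.card Y).Coprime (Nat.card (fitIn H))) (hYM : Y ≤ centralizer (M : Set G)) :
    Y ≤ centralizer (fitIn H : Set G) := by
  apply le_centralizer_comm
  rw [fitIn_eq_iSup_opIn]
  refine iSup_le fun r => ?_
  have hrp : Fact (r : ℕ).Prime := ⟨r.2⟩
  by_cases hr : (r : ℕ) ∣ Nat.card (fitIn H)
  · apply le_centralizer_comm
    intro x hx
    have hxo : (orderOf x).Coprime r :=
      orderOf_coprime_of_card_coprime (Nat.Coprime.coprime_dvd_right hr hY) hx
    have hxc : x ∈ centralizer ((M ⊓ opIn r H : Subgroup G) : Set G) :=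
      centralizer_le inf_le_left (hYM hx)
    refine Cfsg.Agent.Lib.Helper14.thompson_AxB (p := r) (M ⊓ opIn r H) x
      ((opIn_isPGroup r H).to_le inf_le_right) hxo hxc (opIn r H) (opIn_isPGroup r H)
      (le_normalizer_opIn r H (hYH hx)) (inf_le_right.trans le_normalizer) ?_
    have hle : opIn r H ⊓ centralizer ((M ⊓ opIn r H : Subgroup G) : Set G) ≤
        M ⊓ opIn r H := le_inf (opIn_inf_centralizer_le_of_fit hM hCM r) inf_le_left
    exact centralizer_le hle hxc
  · have hc : (Nat.card (fitIn H)).Coprime r :=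
      ((Nat.Prime.coprime_iff_not_dvd r.2).mpr hr).symm
    have : opIn (r : ℕ) H = ⊥ := by
      rw [eq_bot_iff, ← inf_eq_bot_of_isPGroup_of_coprime (opIn_isPGroup r H) hc]
      exact le_inf le_rfl (opIn_le_fitIn r H)
    rw [this]; exact bot_le

end Cfsg.Agent.Lib.Helper52.BU
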