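import Mathlib
import Cfsg.Prelude.Def_CaseTheorems
import Cfsg.Agent.Lib.Helper52.BUCEN

set_option autoImplicit false

namespace Cfsg.Agent.Lib.Helper52.BU

open Subgroup
open Cfsg.Agent.Lib.Helper28

variable {G : Type*} [Group G] [Finite G]

theorem opIn_ne_bot_of_dvd {H : Subgroup G} {p : ℕ} [hp : Fact p.Prime]
    (h : p ∣ Nat.card (fitIn H)) : opIn p H ≠ ⊥ := by
  intro hb
  have h1 : fitIn H ≤ fitPrimeIn p H := by
    have := fitIn_le_sup p H
    rwa [hb, bot_sup_eq] at this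
  have h2 : Nat.card (fitIn H) ∣ Nat.card (fitPrimeIn p H) := card_dvd_of_le h1
  have h3 := fitPrimeIn_coprime p H
  exact hp.out.one_lt.ne' (Nat.eq_one_of_dvd_coprimes h3 (h.trans h2) dvd_rfl)

theorem center_opIn_ne_bot {H : Subgroup G} {r : ℕ} [Fact r.Prime] (hne : opIn r H ≠ ⊥) :
    opIn r H ⊓ centralizer (opIn r H : Set G) ≠ ⊥ := by
  have : Nontrivial ↥(opIn r H) := (nontrivial_iff_ne_bot _).mpr hne
  have hc := (opIn_isPGroup r H).center_nontrivial
  obtain ⟨z, hz⟩ := exists_ne (1 : ↥(center ↥(opIn r H)))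
  intro hb
  apply hz
  have hz1 : ((z : ↥(opIn r H)) : G) ∈
      opIn r H ⊓ centralizer (opIn r H : Set G) := by
    refine ⟨(z : ↥(opIn r H)).2, ?_⟩
    show ((z : ↥(opIn r H)) : G) ∈ centralizer (opIn r H : Set G)
    rw [mem_centralizer_iff]
    intro u hu
    have := mem_center_iff.mp z.2 ⟨u, hu⟩
    exact congrArg Subtype.val this
  rw [hb, mem_bot] at hz1
  exact Subtype.ext (Subtype.ext hz1)

/-- [LOC] `C_G(M ∩ O_p(H)) ≤ H` for `p ∣ |F(H)|`. -/
theorem loc {H M : Subgroup G} (hH : Cfsg.IsLocalSubgroup H)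
    (hHmax : ∀ L : Subgroup G, Cfsg.IsLocalSubgroup L → H ≤ L → L = H) (hM : M ≤ fitIn H)
    (hCM : fitIn H ⊓ centralizer (M : Set G) ≤ M) {p : ℕ} [Fact p.Prime]
    (hp : p ∣ Nat.card (fitIn H)) :
    centralizer ((M ⊓ opIn p H : Subgroup G) : Set G) ≤ H := by
  have hne := opIn_ne_bot_of_dvd hp
  have hZ1 := center_opIn_ne_bot hne
  set Z := opIn p H ⊓ centralizer (opIn p H : Set G) with hZ
  have hZ2 : Z ≤ M ⊓ opIn p H :=
    le_inf (le_trans (inf_le_inf_left _ (centralizer_le inf_le_right))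
      (opIn_inf_centralizer_le_of_fit hM hCM p)) inf_le_left
  have hZ3 : H ≤ normalizer (Z : Set G) :=
    le_normalizer_inf' (le_normalizer_opIn p H)
      ((le_normalizer_opIn p H).trans (normalizer_le_normalizer_centralizer _))
  have hloc : Cfsg.IsLocalSubgroup (normalizer (Z : Set G)) :=
    ⟨p, Z, Fact.out, (opIn_isPGroup p H).to_le inf_le_left, hZ1, rfl⟩
  have hN := hHmax _ hloc hZ3
  calc centralizer ((M ⊓ opIn p H : Subgroup G) : Set G) ≤ centralizer (Z : Set G) :=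
        centralizer_le hZ2
    _ ≤ normalizer (Z : Set G) := centralizer_le_normalizer _
    _ = H := hN

end Cfsg.Agent.Lib.Helper52.BU
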