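import Mathlib
import Cfsg.Agent.Lib.Helper28.BigSub
import Cfsg.Agent.S1264

set_option autoImplicit false

namespace Cfsg.Agent.Lib.Helper52.BU

open Subgroup
open Cfsg.Agent.Lib.Helper28

variable {G : Type*} [Group G] [Finite G]

/-- [XR] `C_H(F(H)) ∩ R ≤ F(H)` for `R` solvable normalized by `C_H(F(H))`. -/
theorem xr {H R : Subgroup G} (hR : Group.IsSolvable R)
    (hXR : H ⊓ centralizer (fitIn H : Set G) ≤ normalizer (R : Set G)) :
    H ⊓ centralizer (fitIn H : Set G) ⊓ R ≤ fitIn H := by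
  set X := H ⊓ centralizer (fitIn H : Set G) with hX
  have hZH : X ⊓ R ≤ H := inf_le_left.trans inf_le_left
  have hXn : X ≤ normalizer ((X ⊓ R : Subgroup G) : Set G) :=
    le_normalizer_inf' le_normalizer hXR
  have hcen : ∀ g : ↥H, g ∈ centralizer (Cfsg.fittingSubgroup ↥H : Set ↥H) ↔ (g : G) ∈ X := by
    intro g
    constructor
    · intro hg
      refine ⟨g.2, ?_⟩
      show (g : G) ∈ centralizer (fitIn H : Set G)
      rw [mem_centralizer_iff]
      rintro _ ⟨f, hf, rfl⟩
      exact congrArg Subtype.val (mem_centralizer_iff.mp hg f hf)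
    · intro hg
      rw [mem_centralizer_iff]
      intro f hf
      exact Subtype.ext (mem_centralizer_iff.mp hg.2 (f : G) ⟨f, hf, rfl⟩)
  have h1 := Cfsg.Agent.S1264.result (G := ↥H) ((X ⊓ R).subgroupOf H)
    (fun y hy => (hcen y).mpr (mem_subgroupOf.mp hy).1)
    (by
      rw [← subgroupOf_normalizer_eq hZH]
      intro g hg
      exact mem_subgroupOf.mpr (hXn ((hcen g).mp hg)))
    (Group.isSolvable_of_isSolvable_injective
      (f := (inclusion (inf_le_right : X ⊓ R ≤ R)).comp (subgroupOfEquivOfLe hZH).toMonoidHom)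
      ((inclusion_injective (inf_le_right : X ⊓ R ≤ R)).comp (subgroupOfEquivOfLe hZH).injective))
  intro x hx
  have h2 := h1 (show (⟨x, hZH hx⟩ : ↥H) ∈ (X ⊓ R).subgroupOf H from mem_subgroupOf.mpr hx)
  exact ⟨⟨x, hZH hx⟩, map_subtype_le _ h2, rfl⟩

end Cfsg.Agent.Lib.Helper52.BU
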