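import Mathlib
import Cfsg.Agent.Lib.Helper28.BigSub
import Cfsg.Agent.Lib.Helper27.LBalance3
import Cfsg.Agent.Lib.Helper27.SolvBalance
import Cfsg.Agent.Lib.Helper29.PConstr

set_option autoImplicit false

namespace Cfsg.Agent.Lib.Helper52.BU

open Subgroup
open Cfsg.Agent.Lib.Helper28

/-- absolute solvable balance for `p`-subgroups. -/
theorem bal_abs {X : Type*} [Group X] [Finite X] {p : ℕ} [Fact p.Prime]
    (hX : Group.IsSolvable X) {P D : Subgroup X} (hP : IsPGroup p P)
    (hDP : D ≤ centralizer (P : Set X)) (hD : ¬ p ∣ Nat.card D)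
    (hn : centralizer (P : Set X) ≤ normalizer (D : Set X)) : D ≤ Cfsg.pPrimeCore p X := by
  have hc : Cfsg.Agent.Lib.Helper37.CharP p (X ⧸ Cfsg.pPrimeCore p X) :=
    Cfsg.Agent.Lib.Helper27.centralizer_pCore_le_of_solvable p inferInstance
      (Cfsg.Agent.Lib.Helper29.pPrimeCore_quotient_eq_bot p)
  have h1 := Cfsg.Agent.Lib.Helper27.le_map_pPrimeCore hDP hn hD
  have h2 := h1.trans (Cfsg.Agent.Lib.Helper27.map_pPrimeCore_centralizer_le p P)
  rw [Cfsg.Agent.Lib.Helper29.core_normalizer_eq hc P hP] at h2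
  exact h2.trans inf_le_left

variable {G : Type*} [Group G] [Finite G]

/-- [BAL] solvable balance, relative form: `O_{p'}(C_X(P)) ≤ O_{p'}(X)`. -/
theorem bal {p : ℕ} [Fact p.Prime] {X P D : Subgroup G} (hX : Group.IsSolvable X) (hPX : P ≤ X)
    (hP : IsPGroup p P) (hDX : D ≤ X) (hDP : D ≤ centralizer (P : Set G))
    (hD : (Nat.card D).Coprime p)
    (hn : X ⊓ centralizer (P : Set G) ≤ normalizer (D : Set G)) : D ≤ opPrimeIn p X := by
  refine le_map_subtype_of_subgroupOf_le hDX ?_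
  have hcen : ∀ g : ↥X, g ∈ centralizer ((P.subgroupOf X : Subgroup ↥X) : Set ↥X) ↔
      (g : G) ∈ centralizer (P : Set G) := by
    intro g
    constructor
    · intro hg
      rw [mem_centralizer_iff]
      intro y hy
      exact congrArg Subtype.val (mem_centralizer_iff.mp hg ⟨y, hPX hy⟩ (mem_subgroupOf.mpr hy))
    · intro hg
      rw [mem_centralizer_iff]
      intro y hy
      exact Subtype.ext (mem_centralizer_iff.mp hg (y : G) (mem_subgroupOf.mp hy))
  refine bal_abs hX (P := P.subgroupOf X) (hP.of_equiv (subgroupOfEquivOfLe hPX).symm)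
    (fun y hy => (hcen y).mpr (hDP (mem_subgroupOf.mp hy))) ?_ ?_
  · rw [Nat.card_congr (subgroupOfEquivOfLe hDX).toEquiv, ← coprime_iff_not_dvd]
    exact hD
  · rw [← subgroupOf_normalizer_eq hDX]
    intro g hg
    exact mem_subgroupOf.mpr (hn ⟨g.2, (hcen g).mp hg⟩)

end Cfsg.Agent.Lib.Helper52.BU
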